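import Cfsg.Agent.Lib.U43Cov.CovData
import Cfsg.Agent.Lib.Schur.PcBase

/-!
# The table of the two generators of a triple cover of `PSU₄(3)`
-/

set_option autoImplicit false

namespace Cfsg.Agent.Lib.U43Cov.Table

open Cfsg.Agent.Lib.U43Cov.CovData

/-- The columns of the table. -/
def pt : Cfsg.Agent.Lib.TC.Perm.PT :=
  ⟨281 + 378, 2, fun z x => Cfsg.Agent.Lib.PermComp.Core.app c_w c_mask (c_gens.getD z (0, 0, 0)).1 x, id, id, id⟩

end Cfsg.Agent.Lib.U43Cov.Table
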