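import Cfsg.Agent.Lib.U43Cov.CovChain
import Cfsg.Agent.Lib.U43Cov.GData
import Cfsg.Agent.Lib.U43Cov.Table
import Cfsg.Agent.Lib.U43Cov.Cert

/-!
# A triple cover of a permutation group of order `3265920`

The group `X` of permutations of `378 + 281` points, generated by two elements, is a stem extension of the group
`G₀` it induces on the last `281` points, with kernel of order `3`.  Conjugation by a further permutation is an
automorphism of `G₀` that does not lift.  A Sylow `3`-subgroup gives the bound for the stem extensions of `X`.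
-/

set_option autoImplicit false
set_option maxRecDepth 100000

namespace Cfsg.Agent.Lib.U43Cov.Stem

open Cfsg Subgroup
open _root_.Cfsg.Agent.Lib.PermComp _root_.Cfsg.Agent.Lib.PermComp.Core
open Cfsg.Agent.Lib.Schur Cfsg.Agent.Lib.Schur.CoverC Cfsg.Agent.Lib.Schur.CoverCert
open Cfsg.Agent.Lib.U43Cov.CovData Cfsg.Agent.Lib.U43Cov.GData Cfsg.Agent.Lib.U43Cov.ChainX
open Cfsg.Agent.Lib.U43Cov.Table Cfsg.Agent.Lib.Schur.PcBase Cfsg.Agent.Lib.TC.Core Cfsg.Agent.Lib.TC.Perm

open scoped commutatorElement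

/-- The numbering of the base points. -/
def e' : Fin 281 ≃ Fin 281 := Equiv.refl _

/-- The numbering of all points. -/
def EE : Fin 378 ⊕ Fin 281 ≃ Fin (281 + 378) := CoverH.EF e'

/-! ## The base group -/

theorem t_good : goodPair 281 c2_w c2_mask (c2_T.getD 0 0) (c2_Ti.getD 0 0) = true ∧
    goodPair 281 c2_w c2_mask (c2_T.getD 1 0) (c2_Ti.getD 1 0) = true := by
  decide +kernel

theorem T_eq : c2_T = [c2_T.getD 0 0, c2_T.getD 1 0] := by
  decide +kernel

theorem repT2 : ∀ c ∈ c2_T, ∃ g, Rep c2_w c2_mask e' c g := by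
  intro c hc
  rw [T_eq] at hc
  simp only [List.mem_cons, List.not_mem_nil, or_false] at hc
  rcases hc with rfl | rfl
  · exact exists_rep e' t_good.1
  · exact exists_rep e' t_good.2

theorem hc2 : Core.checkAll 281 c2_w c2_mask c2_L c2_maskL c2_idc c2_T c2_prog c2_levels = true := by
  decide +kernel

theorem hord2 : Core.orderC c2_levels = 3265920 := by
  decide +kernel

theorem main2 : c2_mask = 2 ^ c2_w - 1 ∧ (∀ i < 281, Core.app c2_w c2_mask c2_idc i = i) ∧ c2_idc < 2 ^ (281 * c2_w) ∧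
      Core.Sem c2_w c2_mask e' c2_L c2_maskL c2_levels ∧ Core.H c2_w c2_mask e' c2_T = Core.H c2_w c2_mask e' (Core.topGens c2_levels) ∧
      Nat.card (Core.H c2_w c2_mask e' c2_T) = Core.orderC c2_levels :=
  Core.main_of_checkAll repT2 hc2

/-- The base group. -/
def G₀ : Subgroup (Equiv.Perm (Fin 281)) := Core.H c2_w c2_mask e' c2_T

theorem card_G₀ : Nat.card G₀ = 3265920 := by
  show Nat.card (Core.H c2_w c2_mask e' c2_T) = _
  rw [main2.2.2.2.2.2, hord2]

theorem hbase {Pts : List ℕ} (hP : ∀ x ∈ c2_levels.map Core.Lev.base, x ∈ Pts) :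
    ∀ g ∈ G₀, (∀ b : Fin 281, ((e' b : Fin 281) : ℕ) ∈ Pts → g b = b) → g = 1 := by
  intro g hg hfix
  obtain ⟨-, -, -, hsem, hH, -⟩ := main2
  have hg' : g ∈ Core.H c2_w c2_mask e' (Core.topGens c2_levels) := by
    rw [← hH]; exact hg
  exact CoverC.eq_one_of_fix_base c2_levels hsem g hg' (fun a ha => hfix a (hP _ ha))

/-! ## The cover -/

/-- The cover. -/
def X : Subgroup (Equiv.Perm (Fin 378 ⊕ Fin 281)) := H c_w c_mask EE (c_gens.map (·.1))

theorem gens_ok : allL (CoverH.blockOK 378 281 c_w c_mask c2_w c2_mask) c_gens = true := by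
  decide +kernel

theorem base_eq : c_gens.map (·.2.2) = c2_T := by
  decide +kernel

theorem hm_ok : c_mask = 2 ^ c_w - 1 := by
  decide +kernel

theorem hid_b : allL (fun i => Nat.beq (app c_w c_mask c_idc i) i) (List.range (281 + 378)) = true := by
  decide +kernel

theorem hid_ok : ∀ i < 281 + 378, app c_w c_mask c_idc i = i := fun i hi =>
  Nat.eq_of_beq_eq_true ((allL_eq_true _ _).1 hid_b i (List.mem_range.2 hi))

theorem slp_ok : slpCheck (281 + 378) c_w c_mask c_idc (c_u :: c_v :: topGens (c_levels.map CLev.lev)) c_prog0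
    (c_gens.map (·.1)).reverse (c_gens.map (·.1)).length = true := by
  decide +kernel

theorem twits_ok : gensOK c_w c_mask c_L c_maskL c_z c_P c_idc (c_levels.map CLev.lev) (c_gens.map (·.1)) c_twits = true := by
  decide +kernel

theorem sizes_ok : sizes c_levels = 3265920 := by
  decide +kernel

theorem z_good : goodPair (281 + 378) c_w c_mask c_z c_zd = true := by
  decide +kernel

theorem z_fix : allL (fun b => Nat.beq (app c_w c_mask c_z b) b) (List.range 281) = true := by
  decide +kernel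

theorem z_comm : allL (fun t : ℕ × ℕ × ℕ => Nat.beq (comp (281 + 378) c_w c_mask c_z t.1)
      (comp (281 + 378) c_w c_mask t.1 c_z)) c_gens = true := by
  decide +kernel

theorem z_pow : Nat.beq (powC (281 + 378) c_w c_mask c_idc c_z 3) c_idc = true := by
  decide +kernel

theorem z_ne : Nat.beq (app c_w c_mask c_z (nat_lit 281)) (nat_lit 281) = false := by
  decide +kernel

theorem z_uv : Nat.beq (comp (281 + 378) c_w c_mask c_u c_v)
      (comp (281 + 378) c_w c_mask c_z (comp (281 + 378) c_w c_mask c_v c_u)) = true := by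
  decide +kernel

theorem P_eq : c_P = [nat_lit 0, nat_lit 1, nat_lit 4] ++ (List.range 126).map (fun x => 281 + 3 * x) := by
  decide +kernel

theorem base_P : ∀ x ∈ c2_levels.map Core.Lev.base, x ∈ c_P := by
  decide +kernel

theorem cov_b : allL (fun i => Nat.beq (CoverC.iterZ c_w c_mask c_z (i % 3) (281 + 3 * (i / 3))) (281 + i))
    (List.range 378) = true := by
  decide +kernel

theorem exists_sig : ∃ σ : X →* G₀, IsStemExtension σ ∧ Nat.card σ.ker = 3 ∧
    ∀ (x : X) (b : Fin 281), x.1 (Sum.inr b) = Sum.inr ((σ x).1 b) := by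
  exact stem_of_chainX (N := 378) (m := 281) (w := c_w)
    (mask := c_mask) (L := c_L) (maskL := c_maskL) (idc := c_idc) (w' := c2_w) (mask' := c2_mask)
    (β := Fin 281) e' (k := 3) Nat.prime_three (gens := c_gens) (prog := c_prog0) (ls := c_levels)
    (zc := c_z) (zd := c_zd) (uc := c_u) (vc := c_v) (p := 281) (Pts := c_P) (twits := c_twits)
    hm_ok hid_ok gens_ok slp_ok CovChain.chain_ok twits_ok
    (by
      rw [base_eq, sizes_ok]
      exact card_G₀.symm)
    z_good z_fix z_comm z_pow (by norm_num) z_ne z_uv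
    (by
      rw [base_eq]
      exact hbase base_P)
    (by
      intro i hi
      refine ⟨281 + 3 * (i / 3), ?_, by omega, i % 3, ?_⟩
      · rw [P_eq]
        refine List.mem_append_right _ ?_
        exact List.mem_map.2 ⟨i / 3, List.mem_range.2 (by omega), rfl⟩
      · exact Nat.eq_of_beq_eq_true ((allL_eq_true _ _).1 cov_b i (List.mem_range.2 hi)))
    X rfl G₀ (by
      show Core.H c2_w c2_mask e' c2_T = _
      rw [base_eq])

/-- The stem extension. -/
noncomputable def sig : X →* G₀ := exists_sig.choose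

theorem sig_stem : IsStemExtension sig := exists_sig.choose_spec.1

theorem sig_card : Nat.card sig.ker = 3 := exists_sig.choose_spec.2.1

theorem sig_spec (x : X) (b : Fin 281) : x.1 (Sum.inr b) = Sum.inr ((sig x).1 b) :=
  exists_sig.choose_spec.2.2 x b

theorem EE_inr (b : Fin 281) : ((EE (Sum.inr b) : Fin (281 + 378)) : ℕ) = b.1 := CoverH.EF_inr (N := 378) e' b

theorem EE_inl (a : Fin 378) : ((EE (Sum.inl a) : Fin (281 + 378)) : ℕ) = 281 + a.1 := CoverH.EF_inl (N := 378) e' a

/-- The values of the stem extension, from a code. -/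
theorem sig_apply {c : ℕ} {x : X} (hx : Rep c_w c_mask EE c x.1) (b : Fin 281) :
    ((sig x).1 b).1 = app c_w c_mask c b.1 := by
  have h1 := hx (Sum.inr b)
  rw [sig_spec, EE_inr, EE_inr] at h1
  exact h1.symm

theorem gens_facts (t : ℕ × ℕ × ℕ) (ht : t ∈ c_gens) : ∃ g, Rep c_w c_mask EE t.1 g := by
  have h1 := (allL_eq_true _ _).1 gens_ok t ht
  simp only [CoverH.blockOK, ifB_eq_true] at h1
  exact exists_rep EE h1.1

/-- Elements of `X` from the second program. -/
theorem prog1_ok : slpCheck (281 + 378) c_w c_mask c_idc [c_ap, c_bp, c_x0, c_x1, c_z, c_u, c_v] c_prog1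
    (c_gens.map (·.1)).reverse (c_gens.map (·.1)).length = true := by
  decide +kernel

theorem gens_X (c : ℕ) (hc : c ∈ c_gens.map (·.1)) : ∃ g ∈ X, Rep c_w c_mask EE c g := by
  obtain ⟨t, ht, rfl⟩ := List.mem_map.1 hc
  obtain ⟨g, hg⟩ := gens_facts t ht
  exact ⟨g, H_of_rep (List.mem_map.2 ⟨t, ht, rfl⟩) hg, hg⟩

theorem prog_X (c : ℕ) (hc : c ∈ [c_ap, c_bp, c_x0, c_x1, c_z, c_u, c_v]) : ∃ g ∈ X, Rep c_w c_mask EE c g :=
  slp_sound (e := EE) hm_ok hid_ok X _ c_prog1 (c_gens.map (·.1)).reverse (c_gens.map (·.1)).length (by simp)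
    (fun c hc => gens_X c (List.mem_reverse.1 hc)) prog1_ok c hc

/-- An element of `X` from a code. -/
noncomputable def elt (c : ℕ) (hc : c ∈ [c_ap, c_bp, c_x0, c_x1, c_z, c_u, c_v]) : X :=
  ⟨(prog_X c hc).choose, (prog_X c hc).choose_spec.1⟩

theorem elt_rep (c : ℕ) (hc : c ∈ [c_ap, c_bp, c_x0, c_x1, c_z, c_u, c_v]) :
    Rep c_w c_mask EE c (elt c hc).1 := (prog_X c hc).choose_spec.2

/-! ## The central element and a base -/

/-- The central element. -/
noncomputable def zz : X := elt c_z (by simp)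

theorem zz_rep : Rep c_w c_mask EE c_z zz.1 := elt_rep _ _

theorem zz_ker : sig zz = 1 := by
  apply Subtype.ext
  ext b
  rw [sig_apply zz_rep]
  exact Nat.eq_of_beq_eq_true ((allL_eq_true _ _).1 z_fix b.1 (List.mem_range.2 b.2))

/-- A point of the cover. -/
def pp : Fin 378 ⊕ Fin 281 := Sum.inl ⟨0, by norm_num⟩

theorem zz_ne_pt : zz.1 pp ≠ pp := by
  intro h
  have h1 := zz_rep pp
  rw [h] at h1
  have h0 : ((EE pp : Fin (281 + 378)) : ℕ) = 281 := EE_inl _
  rw [h0] at h1
  have h2 := z_ne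
  have h3 : app c_w c_mask c_z 281 = 281 := h1
  rw [h3] at h2
  exact absurd h2 (by decide)

theorem eq_one_of_fix (x : X) (h1 : (sig x).1 = 1) (h2 : x.1 pp = pp) :
    x = 1 := by
  by_contra hne
  have hk : x ∈ sig.ker := by
    rw [MonoidHom.mem_ker]
    exact Subtype.ext h1
  have : Fact (Nat.Prime 3) := ⟨by norm_num⟩
  let x' : sig.ker := ⟨x, hk⟩
  have hx' : x' ≠ 1 := fun h => hne (congrArg Subtype.val h)
  have hzp : zpowers x' = ⊤ := by
    exact zpowers_eq_top_of_prime_card sig_card hx'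
  have hz' : (⟨zz, zz_ker⟩ : sig.ker) ∈ zpowers x' := by rw [hzp]; trivial
  obtain ⟨n, hn⟩ := mem_zpowers_iff.1 hz'
  have hn' : x ^ n = zz := congrArg Subtype.val hn
  apply zz_ne_pt
  rw [← hn']
  have hfix : ∀ k : ℤ, (x ^ k : X).1 pp = pp := by
    intro k
    have : (x ^ k : X).1 = x.1 ^ k := rfl
    rw [this]
    exact Equiv.Perm.zpow_apply_eq_self_of_apply_eq_self h2 k
  exact hfix n

/-! ## The automorphism -/

theorem D_good : goodPair 281 c2_w c2_mask c_D c_Di = true := by
  decide +kernel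

theorem exists_δ : ∃ δ : Equiv.Perm (Fin 281), Rep c2_w c2_mask e' c_D δ := exists_rep e' D_good

/-- The permutation that normalizes `G₀`. -/
noncomputable def δ : Equiv.Perm (Fin 281) := exists_δ.choose

theorem δ_rep : Rep c2_w c2_mask e' c_D δ := exists_δ.choose_spec

theorem δ_val (b : Fin 281) : (δ b).1 = app c2_w c2_mask c_D b.1 := (δ_rep b).symm

theorem δi_val (b : Fin 281) : (δ⁻¹ b).1 = app c2_w c2_mask c_Di b.1 := by
  have h1 := goodPair_spec D_good (i := (δ⁻¹ b).1) (δ⁻¹ b).2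
  have h2 := δ_val (δ⁻¹ b)
  have h3 : (δ (δ⁻¹ b)) = b := by simp
  rw [h3] at h2
  rw [h2]
  exact h1.2.2.1.symm

theorem conj_of_codes {c c' : ℕ} {x x' : X} (hx : Rep c_w c_mask EE c x.1) (hx' : Rep c_w c_mask EE c' x'.1)
    (h : allL (fun i => Nat.beq (app c_w c_mask c i)
      (app c2_w c2_mask c_D (app c_w c_mask c' (app c2_w c2_mask c_Di i)))) (List.range 281) = true) :
    (sig x).1 = δ * (sig x').1 * δ⁻¹ := by
  ext b
  have h1 := Nat.eq_of_beq_eq_true ((allL_eq_true _ _).1 h b.1 (List.mem_range.2 b.2))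
  rw [sig_apply hx, h1, Equiv.Perm.mul_apply, Equiv.Perm.mul_apply, δ_val, sig_apply hx', δi_val]

theorem c_gens_len : c_gens = [c_gens.getD 0 (0, 0, 0), c_gens.getD 1 (0, 0, 0)] := by
  decide +kernel

/-- The generators of `X`. -/
noncomputable def gA (j : Fin 2) : X :=
  ⟨(gens_X (c_gens.getD j.1 (0, 0, 0)).1 (by
    rw [c_gens_len]
    fin_cases j <;> simp)).choose, (gens_X (c_gens.getD j.1 (0, 0, 0)).1 (by
    rw [c_gens_len]
    fin_cases j <;> simp)).choose_spec.1⟩

theorem gA_rep (j : Fin 2) : Rep c_w c_mask EE (c_gens.getD j.1 (0, 0, 0)).1 (gA j).1 :=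
  (gens_X (c_gens.getD j.1 (0, 0, 0)).1 (by
    rw [c_gens_len]
    fin_cases j <;> simp)).choose_spec.2

theorem x_conj : allL (fun i => Nat.beq (app c_w c_mask c_x0 i)
      (app c2_w c2_mask c_D (app c_w c_mask (c_gens.getD 0 (0, 0, 0)).1 (app c2_w c2_mask c_Di i)))) (List.range 281) = true ∧
    allL (fun i => Nat.beq (app c_w c_mask c_x1 i)
      (app c2_w c2_mask c_D (app c_w c_mask (c_gens.getD 1 (0, 0, 0)).1 (app c2_w c2_mask c_Di i)))) (List.range 281) = true := by
  decide +kernel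

theorem gen_base : allL (fun i => Nat.beq (app c_w c_mask (c_gens.getD 0 (0, 0, 0)).1 i) (app c2_w c2_mask (c2_T.getD 0 0) i))
      (List.range 281) = true ∧
    allL (fun i => Nat.beq (app c_w c_mask (c_gens.getD 1 (0, 0, 0)).1 i) (app c2_w c2_mask (c2_T.getD 1 0) i))
      (List.range 281) = true := by
  decide +kernel

theorem sig_gA {j : Fin 2} {g : Equiv.Perm (Fin 281)} (hg : Rep c2_w c2_mask e' (c2_T.getD j.1 0) g) :
    (sig (gA j)).1 = g := by
  ext b
  rw [sig_apply (gA_rep j)]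
  have h1 : app c_w c_mask (c_gens.getD j.1 (0, 0, 0)).1 b.1 = app c2_w c2_mask (c2_T.getD j.1 0) b.1 := by
    fin_cases j
    · exact Nat.eq_of_beq_eq_true ((allL_eq_true _ _).1 gen_base.1 b.1 (List.mem_range.2 b.2))
    · exact Nat.eq_of_beq_eq_true ((allL_eq_true _ _).1 gen_base.2 b.1 (List.mem_range.2 b.2))
  rw [h1]
  exact hg b

theorem conj_gen (g : Equiv.Perm (Fin 281)) (hg : g ∈ G₀) : δ * g * δ⁻¹ ∈ G₀ := by
  induction hg using Subgroup.closure_induction with
  | mem g hg =>
    obtain ⟨c, hc, hgc⟩ := hg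
    rw [T_eq] at hc
    simp only [List.mem_cons, List.not_mem_nil, or_false] at hc
    rcases hc with rfl | rfl
    · have h1 := sig_gA (j := 0) hgc
      have h2 := conj_of_codes (elt_rep c_x0 (by simp)) (gA_rep 0) x_conj.1
      rw [h1] at h2
      rw [← h2]
      exact (sig _).2
    · have h1 := sig_gA (j := 1) hgc
      have h2 := conj_of_codes (elt_rep c_x1 (by simp)) (gA_rep 1) x_conj.2
      rw [h1] at h2
      rw [← h2]
      exact (sig _).2
  | one =>
    simp [one_mem]
  | mul x y _ _ hx hy =>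
    have : δ * (x * y) * δ⁻¹ = (δ * x * δ⁻¹) * (δ * y * δ⁻¹) := by group
    rw [this]
    exact mul_mem hx hy
  | inv x _ hx =>
    have : δ * x⁻¹ * δ⁻¹ = (δ * x * δ⁻¹)⁻¹ := by group
    rw [this]
    exact inv_mem hx

/-- The automorphism. -/
noncomputable def αhom : G₀ →* G₀ where
  toFun g := ⟨δ * g.1 * δ⁻¹, conj_gen g.1 g.2⟩
  map_one' := by
    apply Subtype.ext
    simp
  map_mul' x y := by
    apply Subtype.ext
    show δ * (x.1 * y.1) * δ⁻¹ = (δ * x.1 * δ⁻¹) * (δ * y.1 * δ⁻¹)
    group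

theorem αhom_inj : Function.Injective αhom := by
  intro x y h
  apply Subtype.ext
  have h1 : δ * x.1 * δ⁻¹ = δ * y.1 * δ⁻¹ := congrArg Subtype.val h
  simpa using h1

/-- The automorphism. -/
noncomputable def α : G₀ ≃* G₀ :=
  MulEquiv.ofBijective αhom ⟨αhom_inj, Finite.surjective_of_injective αhom_inj⟩

theorem α_val (g : G₀) : (α g).1 = δ * g.1 * δ⁻¹ := rfl

/-! ## The witness -/

/-- Lifts of a commuting pair that do not commute. -/
noncomputable def wa : X := elt c_u (by simp)
noncomputable def wb : X := elt c_v (by simp)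
/-- Lifts of its image under the automorphism, which do commute. -/
noncomputable def wa' : X := elt c_ap (by simp)
noncomputable def wb' : X := elt c_bp (by simp)

theorem w_conj : allL (fun i => Nat.beq (app c_w c_mask c_u i)
      (app c2_w c2_mask c_D (app c_w c_mask c_ap (app c2_w c2_mask c_Di i)))) (List.range 281) = true ∧
    allL (fun i => Nat.beq (app c_w c_mask c_v i)
      (app c2_w c2_mask c_D (app c_w c_mask c_bp (app c2_w c2_mask c_Di i)))) (List.range 281) = true := by
  decide +kernel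

theorem wit_a : sig wa = α (sig wa') := by
  apply Subtype.ext
  exact conj_of_codes (elt_rep _ _) (elt_rep _ _) w_conj.1

theorem wit_b : sig wb = α (sig wb') := by
  apply Subtype.ext
  exact conj_of_codes (elt_rep _ _) (elt_rep _ _) w_conj.2

theorem wit_comm : Nat.beq (comp (281 + 378) c_w c_mask c_ap c_bp) (comp (281 + 378) c_w c_mask c_bp c_ap) = true := by
  decide +kernel

theorem wit_ne : ⁅wa, wb⁆ ≠ 1 := by
  intro h
  have h1 : wa * wb = wb * wa := commutatorElement_eq_one_iff_mul_comm.1 h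
  have h2 : wa.1 * wb.1 = wb.1 * wa.1 := congrArg Subtype.val h1
  have r1 := (elt_rep c_u (by simp)).comp hm_ok (elt_rep c_v (by simp))
  have r2 := (elt_rep c_v (by simp)).comp hm_ok (elt_rep c_u (by simp))
  have r3 := (elt_rep c_z (by simp)).comp hm_ok r2
  rw [← Nat.eq_of_beq_eq_true z_uv] at r3
  have h3 : wa.1 * wb.1 = zz.1 * (wb.1 * wa.1) := r1.unique r3
  rw [h2] at h3
  have h4 : zz.1 = 1 := mul_eq_right.1 h3.symm
  apply zz_ne_pt
  rw [h4]
  rfl

theorem wit_e : ⁅wa', wb'⁆ = 1 := by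
  rw [commutatorElement_eq_one_iff_mul_comm]
  apply Subtype.ext
  have r1 := (elt_rep c_ap (by simp)).comp hm_ok (elt_rep c_bp (by simp))
  have r2 := (elt_rep c_bp (by simp)).comp hm_ok (elt_rep c_ap (by simp))
  rw [Nat.eq_of_beq_eq_true wit_comm] at r1
  exact r1.unique r2

/-! ## The tail bound -/

/-- The permutation representation of `X`. -/
noncomputable def φX : X →* Equiv.Perm (Fin pt.n) :=
  (EE.permCongrHom.toMonoidHom).comp X.subtype

theorem φX_apply (x : X) (i : Fin pt.n) : φX x i = EE (x.1 (EE.symm i)) := rfl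

/-- The letters. -/
noncomputable def EL (z : ℕ) : X := if h : z < 2 then gA ⟨z, h⟩ else 1

theorem col_spec {z : ℕ} (h : z < 2) (x : Fin pt.n) :
    ((φX (EL z) x : Fin pt.n) : ℕ) = pt.T z x.1 := by
  have h1 := gA_rep ⟨z, h⟩ (EE.symm x)
  have h2 : ((EE (EE.symm x) : Fin (281 + 378)) : ℕ) = x.1 := congrArg Fin.val (EE.apply_symm_apply x)
  rw [h2] at h1
  rw [φX_apply, EL, dif_pos h]
  exact h1.symm

theorem hval_all (l : List ℕ) (hl : ∀ z ∈ l, z < 2) (x : Fin pt.n) :
    (φX (prodA EL l) x).1 = pt.val l x.1 := by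
  induction l generalizing x with
  | nil =>
    simp [PT.val]
  | cons z l ih =>
    have hz := hl z (by simp)
    rw [prodA_cons, map_mul, Equiv.Perm.mul_apply, ih (fun y hy => hl y (by simp [hy]))]
    show pt.val l _ = pt.val l (pt.T z x.1)
    rw [col_spec hz]

theorem φX_inj : Function.Injective φX := by
  intro x y h
  apply Subtype.ext
  exact EE.permCongrHom.injective h

theorem hbase_all (g : Equiv.Perm (Fin pt.n)) (hg : g ∈ φX.range)
    (hfix : ∀ b : Fin pt.n, b.1 ∈ ([0, 1, 4, 281] : List ℕ) → g b = b) : g = 1 := by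
  obtain ⟨x, rfl⟩ := hg
  have hb : ∀ (b : Fin 281), b.1 ∈ ([0, 1, 4] : List ℕ) → (sig x).1 b = b := by
    intro b hb
    have hlt : (EE (Sum.inr b) : Fin (281 + 378)).1 ∈ ([0, 1, 4, 281] : List ℕ) := by
      rw [EE_inr]
      simp only [List.mem_cons, List.not_mem_nil, or_false] at hb ⊢
      tauto
    have h1 : EE (x.1 (EE.symm (EE (Sum.inr b)))) = EE (Sum.inr b) := hfix (EE (Sum.inr b)) hlt
    rw [Equiv.symm_apply_apply] at h1
    have h2 := EE.injective h1
    rw [sig_spec] at h2
    exact Sum.inr.inj h2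
  have hs : (sig x).1 = 1 := by
    apply hbase (Pts := [0, 1, 4]) (by decide +kernel) _ (sig x).2
    intro b hb'
    exact hb b hb'
  have hp : x.1 pp = pp := by
    have hlt : (EE pp : Fin (281 + 378)).1 ∈ ([0, 1, 4, 281] : List ℕ) := by
      rw [pp, EE_inl]
      simp
    have h1 : EE (x.1 (EE.symm (EE pp))) = EE pp := hfix (EE pp) hlt
    rw [Equiv.symm_apply_apply] at h1
    exact EE.injective h1
  rw [eq_one_of_fix x hs hp, map_one]

theorem model : Model pt EL 2 [0, 1, 4, 281] φX where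
  hval := fun l hl x => hval_all l hl x
  hinj := φX_inj
  hbase := fun g hg hfix => hbase_all g hg hfix
  hlt := by decide

theorem card_X : Nat.card X = 3 ^ 7 * 4480 := by
  have h1 := Subgroup.card_mul_index sig.ker
  rw [Subgroup.index_ker, MonoidHom.range_eq_top.2 sig_stem.1] at h1
  have h2 : Nat.card (⊤ : Subgroup G₀) = 3265920 := by
    rw [← card_G₀]
    exact Nat.card_congr Subgroup.topEquiv.toEquiv
  rw [h2, sig_card] at h1
  rw [← h1]
  norm_num

universe u

/-- The stem extensions of `X` have little `3`-part. -/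
theorem bound3 {Γ : Type u} [Group Γ] [Finite Γ] (f : Γ →* X) (hf : IsStemExtension f) [Fact (Nat.Prime 3)]
    (P : Sylow 3 Γ) : Nat.card (f.subgroupMap (P : Subgroup Γ)).ker ∣ 3 :=
  card_ker_dvd (p := 3) model Cert.C Cert.check_ok Cert.wE Cert.wY Cert.lv Cert.hwE Cert.hwY
    Cert.hrules (fun f hf => Cert.hitems f hf) Cert.hlev Cert.hlvn Cert.hprod rfl hf (m := 4480)
    card_X (by norm_num) P

end Cfsg.Agent.Lib.U43Cov.Stem
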