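import Cfsg.Agent.Lib.U43Cov.BData
import Cfsg.Agent.Lib.U43Cov.Stem
import Cfsg.Agent.Lib.Classical.HermBridge
import Cfsg.Agent.Lib.Classical.HermSimple
import Cfsg.Agent.Lib.Classical.FieldTransfer

/-!
# The group `G₀` is `PSU₄(3)`

The group `SU₄(3)` acts on the isotropic points of its natural module.  The two generators of `G₀` are the images of
explicit matrices, and counting gives the isomorphism.
-/

set_option autoImplicit false
set_option maxRecDepth 100000
set_option linter.unusedSectionVars false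

namespace Cfsg.Agent.Lib.U43Cov.Bridge

open Cfsg Subgroup
open scoped Matrix
open Cfsg.Agent.Lib.U43.Seven Cfsg.Agent.Lib.Golay.Core
open Cfsg.Agent.Lib.CpClosure.SU43.Table Cfsg.Agent.Lib.CpClosure.SU43.Main
open Cfsg.Agent.Lib.U43Cov.BData Cfsg.Agent.Lib.U43Cov.Stem Cfsg.Agent.Lib.U43Cov.GData
open _root_.Cfsg.Agent.Lib.PermComp.Core

/-- A quotient of an action. -/
theorem exists_quot_hom {G X β : Type*} [Group G] (ρ : G →* Equiv.Perm X) (b : X → β) (hb : Function.Surjective b)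
    (h : ∀ g x y, b x = b y → b (ρ g x) = b (ρ g y)) :
    ∃ Θ : G →* Equiv.Perm β, ∀ g x, Θ g (b x) = b (ρ g x) := by
  let r := Function.surjInv hb
  have hr : ∀ j, b (r j) = j := Function.surjInv_eq hb
  have key : ∀ g x, b (ρ g (r (b x))) = b (ρ g x) := fun g x => h g _ _ (hr _)
  let f : G → β → β := fun g j => b (ρ g (r j))
  have hf1 : ∀ j, f 1 j = j := fun j => by
    show b (ρ 1 (r j)) = j
    rw [map_one]
    exact hr j
  have hfm : ∀ g g' j, f (g * g') j = f g (f g' j) := fun g g' j => by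
    show b (ρ (g * g') (r j)) = b (ρ g (r (b (ρ g' (r j)))))
    rw [map_mul, Equiv.Perm.mul_apply]
    exact (key g _).symm
  let Θ : G →* Equiv.Perm β := MonoidHom.mk' (fun g =>
    ⟨f g, f g⁻¹, fun j => by rw [← hfm, inv_mul_cancel, hf1], fun j => by rw [← hfm, mul_inv_cancel, hf1]⟩)
    (fun g g' => Equiv.ext fun j => hfm g g' j)
  exact ⟨Θ, fun g x => key g x⟩

/-! ## Codes -/

/-- The number of the point of a vector. -/
def bt (x : ℕ) : ℕ := app 9 511 bT x

/-- A vector of a point. -/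
def rp (j : ℕ) : ℕ := app 13 8191 repT j

/-- Scalar multiples. -/
def scaleC (c x : ℕ) : ℕ :=
  mulC c (dig x 0) + 9 * mulC c (dig x 1) + 81 * mulC c (dig x 2) + 729 * mulC c (dig x 3)

/-- The form on a vector. -/
def hD (x : ℕ) : ℕ :=
  addC (addC (addC (mulC (dig x 0) (frobC (dig x 0))) (mulC (dig x 1) (frobC (dig x 1))))
    (mulC (dig x 2) (frobC (dig x 2)))) (mulC (dig x 3) (frobC (dig x 3)))

theorem bt_lt_b : allUpTo (fun x => Nat.blt (bt x) 281) 6561 = true := by decide +kernel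

theorem bt_lt (x : ℕ) (hx : x < 6561) : bt x < 281 := by
  have h := allUpTo_iff.1 bt_lt_b x hx
  exact Nat.le_of_ble_eq_true h

theorem rp_ok_b : allUpTo (fun j => Nat.blt (rp j) 6561 && Nat.beq (bt (rp j)) j) 281 = true := by decide +kernel

theorem rp_lt (j : ℕ) (hj : j < 281) : rp j < 6561 := by
  have h := allUpTo_iff.1 rp_ok_b j hj
  rw [Bool.and_eq_true] at h
  exact Nat.le_of_ble_eq_true h.1

theorem bt_rp (j : ℕ) (hj : j < 281) : bt (rp j) = j := by
  have h := allUpTo_iff.1 rp_ok_b j hj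
  rw [Bool.and_eq_true] at h
  exact Nat.eq_of_beq_eq_true h.2

theorem scale_b : allUpTo (fun c => allUpTo (fun x => Nat.beq (bt (scaleC (c + 1) x)) (bt x)) 6561) 8 = true := by
  decide +kernel

theorem bt_scale {c x : ℕ} (h1 : 1 ≤ c) (hc : c < 9) (hx : x < 6561) : bt (scaleC c x) = bt x := by
  obtain ⟨d, rfl⟩ : ∃ d, c = d + 1 := ⟨c - 1, by omega⟩
  exact Nat.eq_of_beq_eq_true (allUpTo_iff.1 (allUpTo_iff.1 scale_b d (by omega)) x hx)

/-- The shape of a fibre. -/
def shapeB (x : ℕ) : Bool :=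
  (Nat.beq (bt x) 280 && (Nat.beq x 0 || !(Nat.beq (hD x) 0))) ||
    (Nat.blt (bt x) 280 && (List.range 8).any fun c => Nat.beq x (scaleC (c + 1) (rp (bt x))))

theorem shape_b : allUpTo shapeB 6561 = true := by decide +kernel

theorem hD_b : allUpTo (fun x => Nat.beq (hD x) 0 || Nat.beq (bt x) 280) 6561 = true := by decide +kernel

theorem bt_zero : bt 0 = 280 := by decide +kernel

theorem shape_cases (x : ℕ) (hx : x < 6561) :
    (bt x = 280 ∧ (x = 0 ∨ hD x ≠ 0)) ∨ (bt x < 280 ∧ ∃ c, 1 ≤ c ∧ c < 9 ∧ x = scaleC c (rp (bt x))) := by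
  have h := allUpTo_iff.1 shape_b x hx
  simp only [shapeB, Bool.or_eq_true, Bool.and_eq_true, Bool.not_eq_true', List.any_eq_true, List.mem_range] at h
  rcases h with ⟨h1, h2⟩ | ⟨h1, c, hc, h2⟩
  · left
    refine ⟨Nat.eq_of_beq_eq_true h1, ?_⟩
    rcases h2 with h2 | h2
    · exact Or.inl (Nat.eq_of_beq_eq_true h2)
    · right
      intro h3
      rw [h3] at h2
      exact absurd h2 (by decide)
  · right
    exact ⟨Nat.le_of_ble_eq_true h1, c + 1, by omega, by omega, Nat.eq_of_beq_eq_true h2⟩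

theorem bt_of_hD (x : ℕ) (hx : x < 6561) (h : hD x ≠ 0) : bt x = 280 := by
  have h1 := allUpTo_iff.1 hD_b x hx
  rw [Bool.or_eq_true] at h1
  rcases h1 with h1 | h1
  · exact absurd (Nat.eq_of_beq_eq_true h1) h
  · exact Nat.eq_of_beq_eq_true h1

theorem dig_scale (c x : ℕ) : dig (scaleC c x) 0 = mulC c (dig x 0) ∧ dig (scaleC c x) 1 = mulC c (dig x 1) ∧
    dig (scaleC c x) 2 = mulC c (dig x 2) ∧ dig (scaleC c x) 3 = mulC c (dig x 3) := by
  have h0 := mulC_lt c (dig x 0)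
  have h1 := mulC_lt c (dig x 1)
  have h2 := mulC_lt c (dig x 2)
  have h3 := mulC_lt c (dig x 3)
  unfold scaleC dig at *
  norm_num at *
  omega

theorem scale_lt (c x : ℕ) : scaleC c x < 6561 := by
  have h0 := mulC_lt c (dig x 0)
  have h1 := mulC_lt c (dig x 1)
  have h2 := mulC_lt c (dig x 2)
  have h3 := mulC_lt c (dig x 3)
  unfold scaleC
  omega

theorem mem_mats2 : ∀ z < 2, orthB (BData.mats.getD z 0) = true ∧
    mmB (BData.mats.getD z 0) (BData.mats.getD z 0) (BData.mats2.getD z 0) = true ∧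
    mmB (BData.mats2.getD z 0) (BData.mats.getD z 0) Ic = true := by decide +kernel

/-- The numbers of the points. -/
def letter_b : Bool :=
  allUpTo (fun z => allUpTo (fun j => Nat.beq (app c2_w c2_mask (c2_T.getD z 0) j) (bt (act (BData.mats.getD z 0) (rp j)))) 281) 2

theorem letter_ok : letter_b = true := by decide +kernel

section K

variable {K : Type} [Field K] [Fintype K] (hK : Fintype.card K = 9) {i : K} (hi : i * i = -1) (h3 : (3 : K) = 0)

include hi h3 in
theorem vec_scale (c x : ℕ) : vec i (scaleC c x) = φ i c • vec i x := by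
  obtain ⟨d0, d1, d2, d3⟩ := dig_scale c x
  funext a
  show φ i (dig (scaleC c x) a.1) = φ i c * φ i (dig x a.1)
  fin_cases a
  · show φ i (dig (scaleC c x) 0) = φ i c * φ i (dig x 0)
    rw [d0, φ_mul hi h3]
  · show φ i (dig (scaleC c x) 1) = φ i c * φ i (dig x 1)
    rw [d1, φ_mul hi h3]
  · show φ i (dig (scaleC c x) 2) = φ i c * φ i (dig x 2)
    rw [d2, φ_mul hi h3]
  · show φ i (dig (scaleC c x) 3) = φ i c * φ i (dig x 3)
    rw [d3, φ_mul hi h3]

include hi h3 in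
theorem herm_vec (x : ℕ) : hermForm 4 K 3 (vec i x) (vec i x) = φ i (hD x) := by
  simp only [hD, φ_add hi h3, φ_mul hi h3, φ_frob hi h3, hermForm, Fin.sum_univ_four]
  rfl

/-- The point of a vector. -/
def bF (x : Fin 6561) : Fin 281 := ⟨bt x.1, bt_lt x.1 x.2⟩

theorem bF_surj : Function.Surjective bF := fun j =>
  ⟨⟨rp j.1, rp_lt j.1 j.2⟩, Fin.ext (bt_rp j.1 j.2)⟩

/-- Multiples on numbers. -/
def sc (c : ℕ) (x : Fin 6561) : Fin 6561 := ⟨scaleC c x.1, scale_lt c x.1⟩

theorem phiG_sc (A : ↥(SU 4 K 3)) (c : ℕ) (x : Fin 6561) :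
    phiG hK hi h3 A (sc c x) = sc c (phiG hK hi h3 A x) := by
  apply (eps hK hi h3).injective
  rw [eps_phiG, eps_apply, eps_apply]
  show _ *ᵥ vec i (scaleC c x.1) = vec i (scaleC c (phiG hK hi h3 A x).1)
  rw [vec_scale hi h3, vec_scale hi h3, Matrix.mulVec_smul]
  congr 1
  have := eps_phiG hK hi h3 A x
  rw [eps_apply, eps_apply] at this
  exact this.symm

theorem bF_phi_sc (A : ↥(SU 4 K 3)) {c : ℕ} (h1 : 1 ≤ c) (hc : c < 9) (x : Fin 6561) :
    bF (phiG hK hi h3 A (sc c x)) = bF (phiG hK hi h3 A x) := by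
  rw [phiG_sc]
  apply Fin.ext
  exact bt_scale h1 hc (phiG hK hi h3 A x).2

theorem bF_280 (A : ↥(SU 4 K 3)) (x : Fin 6561) (h : bt x.1 = 280) : bt (phiG hK hi h3 A x).1 = 280 := by
  rcases shape_cases x.1 x.2 with ⟨-, h2⟩ | ⟨h1, -⟩
  · rcases h2 with h2 | h2
    · have h4 := eps_phiG hK hi h3 A x
      have h5 : eps hK hi h3 x = 0 := by
        rw [eps_apply, h2]
        funext a
        show φ i (dig 0 a.1) = 0
        have : dig 0 a.1 = 0 := by simp [dig]
        rw [this, φ_zero hi h3]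
      rw [h5, Matrix.mulVec_zero] at h4
      have h6 : phiG hK hi h3 A x = ⟨0, by norm_num⟩ := by
        apply (eps hK hi h3).injective
        rw [h4, eps_apply]
        funext a
        show 0 = φ i (dig 0 a.1)
        have : dig 0 a.1 = 0 := by simp [dig]
        rw [this, φ_zero hi h3]
      rw [h6]
      exact bt_zero
    · apply bt_of_hD _ (phiG hK hi h3 A x).2
      intro h7
      have h8 := herm_vec hi h3 (phiG hK hi h3 A x).1
      have h9 := eps_phiG hK hi h3 A x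
      rw [eps_apply, eps_apply] at h9
      rw [h9, h7, φ_zero hi h3] at h8
      have h10 := A.2 (vec i x.1) (vec i x.1)
      have h11 : hermForm 4 K 3 ((A.1.1 : Matrix (Fin 4) (Fin 4) K) *ᵥ vec i x.1)
          ((A.1.1 : Matrix (Fin 4) (Fin 4) K) *ᵥ vec i x.1) = hermForm 4 K 3 (vec i x.1) (vec i x.1) := h10
      rw [h8, herm_vec hi h3] at h11
      have h12 : φ i (hD x.1) = φ i 0 := by rw [φ_zero hi h3]; exact h11.symm
      exact h2 (φ_inj hi h3 (addC_lt _ _) (by norm_num) h12)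
  · omega

theorem compat (A : ↥(SU 4 K 3)) (x y : Fin 6561) (h : bF x = bF y) :
    bF (phiG hK hi h3 A x) = bF (phiG hK hi h3 A y) := by
  have hb : bt x.1 = bt y.1 := congrArg Fin.val h
  rcases shape_cases x.1 x.2 with ⟨h1, -⟩ | ⟨h1, c, hc1, hc, hxc⟩
  · apply Fin.ext
    show bt _ = bt _
    rw [bF_280 hK hi h3 A x h1, bF_280 hK hi h3 A y (by rw [← hb]; exact h1)]
  · rcases shape_cases y.1 y.2 with ⟨h2, -⟩ | ⟨-, d, hd1, hd, hyd⟩
    · omega
    · let z : Fin 6561 := ⟨rp (bt x.1), rp_lt _ (bt_lt x.1 x.2)⟩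
      have e1 : x = sc c z := Fin.ext hxc
      have e2 : y = sc d z := by
        apply Fin.ext
        show y.1 = scaleC d (rp (bt x.1))
        rw [hb]
        exact hyd
      rw [e1, e2, bF_phi_sc hK hi h3 A hc1 hc, bF_phi_sc hK hi h3 A hd1 hd]

/-- The action on the points. -/
theorem exists_Θ : ∃ Θ : ↥(SU 4 K 3) →* Equiv.Perm (Fin 281), ∀ g x, Θ g (bF x) = bF (phiG hK hi h3 g x) :=
  exists_quot_hom (phiG hK hi h3) bF bF_surj (compat hK hi h3)

/-- The letters. -/
noncomputable def sL (hi : i * i = -1) (h3 : (3 : K) = 0) (z : Fin 2) : ↥(SU 4 K 3) :=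
  ⟨⟨toK i (BData.mats.getD z.1 0), toK_det hi h3 (mem_mats2 z.1 z.2).2.1 (mem_mats2 z.1 z.2).2.2⟩,
    toK_iso hi h3 (mem_mats2 z.1 z.2).1⟩

theorem sL_act (z : Fin 2) (x : Fin 6561) : (phiG hK hi h3 (sL hi h3 z) x).1 = act (BData.mats.getD z.1 0) x.1 := by
  apply vec_inj hi h3 (phiG hK hi h3 (sL hi h3 z) x).2 (act_lt _ _)
  rw [vec_act hi h3, ← eps_apply hK hi h3, eps_phiG, eps_apply]
  rfl

/-- The scalar of order four. -/
noncomputable def ζ (hi : i * i = -1) : ↥(SU 4 K 3) :=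
  ⟨⟨i • (1 : Matrix (Fin 4) (Fin 4) K), by
      rw [Matrix.det_smul, Matrix.det_one, mul_one, Fintype.card_fin]
      calc i ^ 4 = (i * i) * (i * i) := by ring
        _ = 1 := by rw [hi]; ring⟩, by
      intro u v
      show hermForm 4 K 3 ((i • (1 : Matrix (Fin 4) (Fin 4) K)) *ᵥ u) ((i • (1 : Matrix (Fin 4) (Fin 4) K)) *ᵥ v) = _
      have h4 : i ^ 4 = 1 := by
        calc i ^ 4 = (i * i) * (i * i) := by ring
          _ = 1 := by rw [hi]; ring
      simp only [Matrix.smul_mulVec, Matrix.one_mulVec, hermForm, Pi.smul_apply, smul_eq_mul, mul_pow]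
      rw [Finset.sum_congr rfl (fun x _ => by
        show i * u x * (i ^ 3 * v x ^ 3) = u x * v x ^ 3
        calc i * u x * (i ^ 3 * v x ^ 3) = i ^ 4 * (u x * v x ^ 3) := by ring
          _ = _ := by rw [h4, one_mul])]⟩

theorem ζ_val : ((ζ hi).1.1 : Matrix (Fin 4) (Fin 4) K) = i • (1 : Matrix (Fin 4) (Fin 4) K) := rfl

theorem ζ_center : ζ hi ∈ Subgroup.center ↥(SU 4 K 3) := by
  rw [Subgroup.mem_center_iff]
  intro g
  apply Subtype.ext
  apply Subtype.ext
  show (g.1.1 : Matrix (Fin 4) (Fin 4) K) * ((ζ hi).1.1 : Matrix (Fin 4) (Fin 4) K) =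
    ((ζ hi).1.1 : Matrix (Fin 4) (Fin 4) K) * (g.1.1 : Matrix (Fin 4) (Fin 4) K)
  rw [ζ_val, Matrix.mul_smul, Matrix.smul_mul, Matrix.mul_one, Matrix.one_mul]

include h3 in
theorem ζ_order : orderOf (ζ hi) = 2 ^ 2 := by
  have : Fact (Nat.Prime 2) := ⟨Nat.prime_two⟩
  have hm : ∀ n : ℕ, (((ζ hi) ^ n : ↥(SU 4 K 3)).1.1 : Matrix (Fin 4) (Fin 4) K) = (i ^ n) • (1 : Matrix (Fin 4) (Fin 4) K) := by
    intro n
    induction n with
    | zero => simp
    | succ n ih =>
      rw [pow_succ]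
      show ((ζ hi ^ n : ↥(SU 4 K 3)).1.1 : Matrix (Fin 4) (Fin 4) K) * ((ζ hi).1.1 : Matrix (Fin 4) (Fin 4) K) = _
      rw [ih, ζ_val, Matrix.smul_mul, Matrix.one_mul, smul_smul, pow_succ]
  apply orderOf_eq_prime_pow
  · intro h
    have h1 := hm 2
    rw [show (2 : ℕ) ^ 1 = 2 by norm_num] at h
    rw [h] at h1
    have h2 := congrFun (congrFun h1 0) 0
    have h4 : (1 : K) = i ^ 2 := by simpa using h2
    have h5 : (1 : K) = -1 := by
      have h7 := h4
      rw [sq, hi] at h7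
      exact h7
    have h6 : (1 : K) = 0 := by linear_combination (-1 : K) * h5 + h3
    exact one_ne_zero h6
  · apply Subtype.ext
    apply Subtype.ext
    rw [hm]
    have h4 : i ^ (2 ^ (1 + 1)) = 1 := by
      calc i ^ (2 ^ (1 + 1)) = (i * i) * (i * i) := by ring
        _ = 1 := by rw [hi]; ring
    rw [h4, one_smul]
    rfl

include hK h3 in
theorem center_eq : Subgroup.center ↥(SU 4 K 3) = zpowers (ζ hi) := by
  symm
  apply Subgroup.eq_of_le_of_card_ge
  · rw [zpowers_le]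
    exact ζ_center hi
  · have hF : Fintype.card K = 3 ^ 2 := by rw [hK]; norm_num
    rw [Cfsg.Agent.Lib.Classical.HermOrders.card_center_SU hF 4 (by norm_num), Nat.card_zpowers, ζ_order hi h3]
    norm_num

theorem ζ_act (x : Fin 6561) : phiG hK hi h3 (ζ hi) x = sc 3 x := by
  apply (eps hK hi h3).injective
  rw [eps_phiG, eps_apply, eps_apply, ζ_val]
  show (i • (1 : Matrix (Fin 4) (Fin 4) K)) *ᵥ vec i x.1 = vec i (scaleC 3 x.1)
  rw [vec_scale hi h3, Matrix.smul_mulVec, Matrix.one_mulVec]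
  congr 1
  simp [φ]

include hK in
theorem perfect_SU : commutator ↥(SU 4 K 3) = ⊤ := by
  have hF : Fintype.card K = 3 ^ 2 := by rw [hK]; norm_num
  have h1 := Cfsg.Agent.Lib.Classical.HermSimple.commutator_eq_top
    (Cfsg.Agent.Lib.Classical.HermBridge.hform hF 4) (Cfsg.Agent.Lib.Classical.HermBridge.invol_frob hF)
    (Cfsg.Agent.Lib.Classical.HermBridge.perfect_hyp hF (by norm_num) (by norm_num))
    (by rw [Module.finrank_fin_fun]; norm_num)
  let e := Cfsg.Agent.Lib.Classical.HermBridge.suEquiv (F := K) 4 3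
  rw [eq_top_iff]
  intro x _
  have h2 : e x ∈ commutator _ := by rw [h1]; trivial
  have h4 : x = e.symm (e x) := by simp
  rw [h4]
  have h5 : (commutator _).map e.symm.toMonoidHom ≤ commutator ↥(SU 4 K 3) := by
    unfold _root_.commutator
    rw [Subgroup.map_commutator]
    exact Subgroup.commutator_mono le_top le_top
  exact h5 ⟨_, h2, rfl⟩

include hK hi h3 in
/-- The stem extension by `SU₄(3)`. -/
theorem exists_σS : ∃ σS : ↥(SU 4 K 3) →* G₀, Function.Surjective σS ∧ σS.ker = Subgroup.center ↥(SU 4 K 3) := by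
  classical
  obtain ⟨Θ, hΘ⟩ := exists_Θ hK hi h3
  have hrep : ∀ z : Fin 2, Rep c2_w c2_mask e' (c2_T.getD z.1 0) (Θ (sL hi h3 z)) := by
    intro z a
    obtain ⟨y, hy⟩ := bF_surj a
    have h1 := allUpTo_iff.1 (allUpTo_iff.1 letter_ok z.1 z.2) a.1 a.2
    have h2 := Nat.eq_of_beq_eq_true h1
    show app c2_w c2_mask (c2_T.getD z.1 0) a.1 = ((Θ (sL hi h3 z)) a).1
    let w : Fin 6561 := ⟨rp a.1, rp_lt a.1 a.2⟩
    have hw : bF w = a := Fin.ext (bt_rp a.1 a.2)
    rw [h2]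
    conv_rhs => rw [← hw]
    rw [hΘ]
    show _ = bt (phiG hK hi h3 (sL hi h3 z) w).1
    rw [sL_act]
  have hle : G₀ ≤ Θ.range := by
    apply (Subgroup.closure_le _).2
    rintro g ⟨c, hc, hg⟩
    rw [T_eq] at hc
    simp only [List.mem_cons, List.not_mem_nil, or_false] at hc
    rcases hc with rfl | rfl
    · exact ⟨_, (hg.unique (hrep 0)).symm⟩
    · exact ⟨_, (hg.unique (hrep 1)).symm⟩
  have hζk : ζ hi ∈ Θ.ker := by
    rw [MonoidHom.mem_ker]
    ext a
    obtain ⟨y, rfl⟩ := bF_surj a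
    rw [hΘ, ζ_act]
    show bt (scaleC 3 y.1) = bt y.1
    exact bt_scale (by norm_num) (by norm_num) y.2
  have hcenter : Subgroup.center ↥(SU 4 K 3) ≤ Θ.ker := by
    rw [center_eq hK hi h3, zpowers_le]
    exact hζk
  have hSU : Nat.card ↥(SU 4 K 3) = 13063680 := by
    rw [card_SU43 hK]
    norm_num
  have h1 := Subgroup.card_mul_index Θ.ker
  rw [Subgroup.index_ker, hSU] at h1
  have h2 : 3265920 ≤ Nat.card Θ.range := by
    rw [← card_G₀]
    exact Subgroup.card_le_of_le hle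
  have hF : Fintype.card K = 3 ^ 2 := by rw [hK]; norm_num
  have h4 : 4 ≤ Nat.card Θ.ker := by
    have h5 := Subgroup.card_le_of_le hcenter
    rw [Cfsg.Agent.Lib.Classical.HermOrders.card_center_SU hF 4 (by norm_num)] at h5
    simpa using h5
  have h5 : Nat.card Θ.ker = 4 := by nlinarith
  have h6 : Nat.card Θ.range = 3265920 := by
    rw [h5] at h1
    omega
  have hG : G₀ = Θ.range := by
    apply Subgroup.eq_of_le_of_card_ge hle
    rw [h6, card_G₀]
  have hker : Θ.ker = Subgroup.center ↥(SU 4 K 3) := by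
    symm
    apply Subgroup.eq_of_le_of_card_ge hcenter
    rw [h5, Cfsg.Agent.Lib.Classical.HermOrders.card_center_SU hF 4 (by norm_num)]
    norm_num
  refine ⟨Θ.codRestrict G₀ (fun g => by rw [hG]; exact ⟨g, rfl⟩), ?_, ?_⟩
  · rintro ⟨y, hy⟩
    rw [hG] at hy
    obtain ⟨g, rfl⟩ := hy
    exact ⟨g, rfl⟩
  · rw [← hker]
    ext g
    simp only [MonoidHom.mem_ker]
    constructor
    · intro h
      exact congrArg Subtype.val h
    · intro h
      exact Subtype.ext h

end K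

/-! ## Change of field -/

section Field

universe u v

variable {K : Type u} {K' : Type v} [Field K] [Field K']

theorem hermForm_map' (f : K ≃+* K') {n : ℕ} (q : ℕ) (u v : Fin n → K) :
    Cfsg.hermForm n K' q (f ∘ u) (f ∘ v) = f (Cfsg.hermForm n K q u v) := by
  simp [Cfsg.hermForm, map_sum]

theorem mulVec_map' (f : K ≃+* K') {n : ℕ} (M : Matrix (Fin n) (Fin n) K) (u : Fin n → K) :
    (M.map f) *ᵥ (f ∘ u) = f ∘ (M *ᵥ u) := by
  funext i
  simp [Matrix.mulVec, dotProduct, map_sum]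

theorem su_map_le' (f : K ≃+* K') (n q : ℕ) :
    (Cfsg.SU n K q).map (Cfsg.Agent.Lib.Classical.FieldTransfer.slCongr f).toMonoidHom ≤ Cfsg.SU n K' q := by
  rintro _ ⟨g, hg, rfl⟩
  intro u v
  have hu : u = f ∘ (f.symm ∘ u) := by funext i; simp
  have hv : v = f ∘ (f.symm ∘ v) := by funext i; simp
  have hM : ((Cfsg.slToMat n K') ((Cfsg.Agent.Lib.Classical.FieldTransfer.slCongr f).toMonoidHom g)) =
      ((g : Matrix (Fin n) (Fin n) K)).map f := rfl
  rw [hM, hu, hv, mulVec_map', mulVec_map', hermForm_map', hermForm_map']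
  exact congrArg f (hg _ _)

theorem su_map_eq' (f : K ≃+* K') (n q : ℕ) :
    (Cfsg.SU n K q).map (Cfsg.Agent.Lib.Classical.FieldTransfer.slCongr f).toMonoidHom = Cfsg.SU n K' q := by
  apply le_antisymm (su_map_le' f n q)
  intro g hg
  refine ⟨(Cfsg.Agent.Lib.Classical.FieldTransfer.slCongr f.symm) g, su_map_le' f.symm n q ⟨g, hg, rfl⟩, ?_⟩
  apply Subtype.ext
  ext i j
  simp

theorem nonempty_psu_congr (f : K ≃+* K') (n q : ℕ) : Nonempty (Cfsg.PSU n K q ≃* Cfsg.PSU n K' q) :=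
  ⟨Cfsg.Agent.Lib.Classical.FieldTransfer.centralQuotientCongr
    (((Cfsg.Agent.Lib.Classical.FieldTransfer.slCongr f).subgroupMap (Cfsg.SU n K q)).trans
    (MulEquiv.subgroupCongr (su_map_eq' f n q)))⟩

end Field

end Cfsg.Agent.Lib.U43Cov.Bridge
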