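import Cfsg.Agent.Lib.Schur.Pullback
import Cfsg.Agent.Lib.Schur.Stem
import Cfsg.Agent.Lib.Schur.Local

/-!
# Joins of stem extensions of a perfect group

The commutator subgroup of the pullback of two stem extensions of a perfect group is again a stem extension, mapping
onto both.  This gives a stem extension with a non-cyclic kernel from cyclic ones, and an upper bound for the kernels
of all stem extensions.
-/

set_option autoImplicit false

namespace Cfsg.Agent.Lib.U43Cov.Join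

open Cfsg Subgroup Cfsg.Agent.Lib.Schur.Pullback
open scoped commutatorElement

universe u v w

section Basic

variable {G : Type w} [Group G]

theorem comm_central {P : Type*} [Group P] {k k' : P} (h : ∀ q, k * q = q * k) (h' : ∀ q, k' * q = q * k') (d d' : P) :
    ⁅k * d, k' * d'⁆ = ⁅d, d'⁆ := by
  have key : ∀ a b : P, ⁅a, b⁆ * (b * a) = a * b := fun a b => by
    rw [commutatorElement_def]
    group
  have e1 : k * d * (k' * d') = k * k' * (d * d') := by
    rw [mul_assoc k d, ← mul_assoc d k' d', ← h' d, mul_assoc k' d d', mul_assoc k k']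
  have e2 : k' * d' * (k * d) = k * k' * (d' * d) := by
    rw [mul_assoc k' d', ← mul_assoc d' k d, ← h d', mul_assoc k d' d, ← mul_assoc k' k, ← h k']
  have hkk : ∀ q, k * k' * q = q * (k * k') := fun q => by
    rw [mul_assoc, h', ← mul_assoc, h, mul_assoc]
  apply mul_right_cancel (b := k' * d' * (k * d))
  rw [key, e1, e2, ← mul_assoc ⁅d, d'⁆ (k * k') (d' * d), ← hkk ⁅d, d'⁆, mul_assoc (k * k') ⁅d, d'⁆ (d' * d), key]

theorem top_of_stem {Γ : Type*} [Group Γ] {σ : Γ →* G} (hσ : IsStemExtension σ) (hG : commutator G = ⊤) :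
    commutator Γ = ⊤ := by
  rw [eq_top_iff]
  intro x _
  have h1 : σ x ∈ commutator G := by rw [hG]; trivial
  obtain ⟨y, hy, hyx⟩ := commutator_le_map_of_surj σ hσ.1 h1
  have h2 : y⁻¹ * x ∈ σ.ker := by
    rw [MonoidHom.mem_ker, map_mul, map_inv, hyx, inv_mul_cancel]
  have h3 := mul_mem hy (hσ.2.2 h2)
  simpa using h3

/-- What a join gives. -/
structure IsJoin {Γ₁ : Type u} {Γ₂ : Type v} [Group Γ₁] [Group Γ₂] (σ₁ : Γ₁ →* G) (σ₂ : Γ₂ →* G)
    {D : Type*} [Group D] (ρ : D →* G) (f₁ : D →* Γ₁) (f₂ : D →* Γ₂) : Prop where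
  stem : IsStemExtension ρ
  s1 : Function.Surjective f₁
  s2 : Function.Surjective f₂
  c1 : ∀ x, σ₁ (f₁ x) = ρ x
  c2 : ∀ x, σ₂ (f₂ x) = ρ x
  inj : ∀ x, f₁ x = 1 → f₂ x = 1 → x = 1
  perf : commutator D = ⊤
  wit : ∀ a b a' b', σ₁ a = σ₂ a' → σ₁ b = σ₂ b' → ∃ x, f₁ x = ⁅a, b⁆ ∧ f₂ x = ⁅a', b'⁆

theorem exists_join {Γ₁ : Type u} {Γ₂ : Type v} [Group Γ₁] [Group Γ₂] [Finite Γ₁] [Finite Γ₂]
    (hG : commutator G = ⊤) {σ₁ : Γ₁ →* G} {σ₂ : Γ₂ →* G} (h₁ : IsStemExtension σ₁) (h₂ : IsStemExtension σ₂) :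
    ∃ (D : Type (max u v)) (_ : Group D) (_ : Finite D) (ρ : D →* G) (f₁ : D →* Γ₁) (f₂ : D →* Γ₂),
      IsJoin σ₁ σ₂ ρ f₁ f₂ := by
  classical
  let P := Cfsg.Agent.Lib.Schur.Pullback.P σ₁ σ₂
  let D : Subgroup P := commutator P
  let f₁ : D →* Γ₁ := (fstP σ₁ σ₂).comp D.subtype
  let f₂ : D →* Γ₂ := (sndP σ₁ σ₂).comp D.subtype
  let ρ : D →* G := σ₁.comp f₁
  have hmem : ∀ p : P, σ₁ (p : Γ₁ × Γ₂).1 = σ₂ (p : Γ₁ × Γ₂).2 := fun p => p.2
  have c1 : ∀ x, σ₁ (f₁ x) = ρ x := fun x => rfl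
  have c2 : ∀ x, σ₂ (f₂ x) = ρ x := fun x => (hmem x.1).symm
  have hΓ₁ := top_of_stem h₁ hG
  have hΓ₂ := top_of_stem h₂ hG
  have s1 : Function.Surjective f₁ := by
    intro y
    have h3 : y ∈ commutator Γ₁ := by rw [hΓ₁]; trivial
    obtain ⟨x, hx, hxy⟩ := commutator_le_map_of_surj (fstP σ₁ σ₂) (fstP_surj h₂.1) h3
    exact ⟨⟨x, hx⟩, hxy⟩
  have s2 : Function.Surjective f₂ := by
    intro y
    have h3 : y ∈ commutator Γ₂ := by rw [hΓ₂]; trivial
    obtain ⟨x, hx, hxy⟩ := commutator_le_map_of_surj (sndP σ₁ σ₂) (sndP_surj h₁.1) h3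
    exact ⟨⟨x, hx⟩, hxy⟩
  have sρ : Function.Surjective ρ := h₁.1.comp s1
  -- elements of the pullback over the identity of `G` are central
  have hcent : ∀ k : P, σ₁ (k : Γ₁ × Γ₂).1 = 1 → ∀ q : P, k * q = q * k := by
    intro k hk q
    apply Subtype.ext
    apply Prod.ext
    · exact (Subgroup.mem_center_iff.1 (h₁.2.1 (MonoidHom.mem_ker.2 hk)) _).symm
    · have hk2 : σ₂ (k : Γ₁ × Γ₂).2 = 1 := by rw [← hmem]; exact hk
      exact (Subgroup.mem_center_iff.1 (h₂.2.1 (MonoidHom.mem_ker.2 hk2)) _).symm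
  have hdec : ∀ p : P, ∃ (d : D) (k : P), σ₁ (k : Γ₁ × Γ₂).1 = 1 ∧ p = k * d := by
    intro p
    obtain ⟨d, hd⟩ := sρ (σ₁ (p : Γ₁ × Γ₂).1)
    refine ⟨d, p * (d : P)⁻¹, ?_, by group⟩
    have h4 : σ₁ ((d : P) : Γ₁ × Γ₂).1 = ρ d := rfl
    have h5 : ((p * (d : P)⁻¹ : P) : Γ₁ × Γ₂).1 = (p : Γ₁ × Γ₂).1 * (((d : P) : Γ₁ × Γ₂).1)⁻¹ := rfl
    rw [h5, map_mul, map_inv, h4, hd, mul_inv_cancel]
  have hcomm : ∀ p q : P, ⁅p, q⁆ ∈ (commutator D).map D.subtype := by
    intro p q
    obtain ⟨d, k, hk, rfl⟩ := hdec p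
    obtain ⟨d', k', hk', rfl⟩ := hdec q
    have hc1 := hcent k hk
    have hc2 := hcent k' hk'
    have h6 : ⁅k * (d : P), k' * (d' : P)⁆ = ((⁅d, d'⁆ : D) : P) := comm_central hc1 hc2 _ _
    rw [h6]
    exact ⟨⁅d, d'⁆, Subgroup.commutator_mem_commutator (mem_top _) (mem_top _), rfl⟩
  have hDle : (D : Subgroup P) ≤ (commutator D).map D.subtype := by
    show commutator P ≤ _
    rw [_root_.commutator_def, Subgroup.commutator_le]
    intro p _ q _
    exact hcomm p q
  have perf : commutator D = ⊤ := by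
    rw [eq_top_iff]
    intro x _
    obtain ⟨y, hy, hyx⟩ := hDle x.2
    have : y = x := Subtype.ext hyx
    rwa [← this]
  refine ⟨D, inferInstance, inferInstance, ρ, f₁, f₂, ⟨⟨sρ, ?_, ?_⟩, s1, s2, c1, c2, ?_, perf, ?_⟩⟩
  · intro x hx
    rw [Subgroup.mem_center_iff]
    intro y
    apply Subtype.ext
    exact (hcent x.1 (MonoidHom.mem_ker.1 hx) y.1).symm
  · rw [perf]
    exact le_top
  · intro x h1 h2
    apply Subtype.ext
    apply Subtype.ext
    exact Prod.ext h1 h2
  · intro a b a' b' ha hb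
    let p : P := ⟨(a, a'), ha⟩
    let q : P := ⟨(b, b'), hb⟩
    exact ⟨⟨⁅p, q⁆, Subgroup.commutator_mem_commutator (mem_top _) (mem_top _)⟩, rfl, rfl⟩

end Basic

section Restrict

variable {G : Type w} [Group G] {Γ : Type u} {D : Type v} [Group Γ] [Group D]

/-- The restriction to the kernels. -/
def kerMap {σ : Γ →* G} {ρ : D →* G} (f : D →* Γ) (hc : ∀ x, σ (f x) = ρ x) : ρ.ker →* σ.ker where
  toFun x := ⟨f x.1, by rw [MonoidHom.mem_ker, hc]; exact x.2⟩
  map_one' := by
    apply Subtype.ext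
    simp
  map_mul' x y := by
    apply Subtype.ext
    simp

theorem kerMap_surj {σ : Γ →* G} {ρ : D →* G} {f : D →* Γ} (hc : ∀ x, σ (f x) = ρ x)
    (hs : Function.Surjective f) : Function.Surjective (kerMap f hc) := by
  rintro ⟨y, hy⟩
  obtain ⟨x, rfl⟩ := hs y
  refine ⟨⟨x, ?_⟩, rfl⟩
  rw [MonoidHom.mem_ker, ← hc]
  exact hy

theorem stem_of_factor {σ : Γ →* G} {ρ : D →* G} {f : D →* Γ} (hc : ∀ x, σ (f x) = ρ x)
    (hs : Function.Surjective f) (hρ : IsStemExtension ρ) (hp : commutator D = ⊤) : IsStemExtension f := by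
  refine ⟨hs, ?_, ?_⟩
  · intro x hx
    apply hρ.2.1
    rw [MonoidHom.mem_ker, ← hc, MonoidHom.mem_ker.1 hx, map_one]
  · rw [hp]
    exact le_top

end Restrict

section Big

variable {G : Type w} [Group G]

/-- A bijective homomorphism from the kernel to a product, by counting. -/
theorem bijective_prod {K A B : Type*} [Group K] [Group A] [Group B] [Finite K] [Finite A] [Finite B]
    (f : K →* A) (g : K →* B) (hf : Function.Surjective f) (hg : Function.Surjective g)
    (hinj : ∀ x, f x = 1 → g x = 1 → x = 1) (hc : Nat.Coprime (Nat.card A) (Nat.card B)) :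
    Function.Bijective (f.prod g) := by
  have hi : Function.Injective (f.prod g) := by
    rw [injective_iff_map_eq_one]
    intro x hx
    have h1 : (f x, g x) = 1 := hx
    exact hinj x (congrArg Prod.fst h1) (congrArg Prod.snd h1)
  refine (Nat.bijective_iff_injective_and_card _).2 ⟨hi, ?_⟩
  apply le_antisymm (Nat.card_le_card_of_injective _ hi)
  rw [Nat.card_prod]
  have h1 := Subgroup.card_dvd_of_surjective f hf
  have h2 := Subgroup.card_dvd_of_surjective g hg
  exact Nat.le_of_dvd Nat.card_pos (hc.mul_dvd_of_dvd_of_dvd h1 h2)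

/-- A stem extension with kernel `4 × 3 × 3`. -/
theorem exists_big {S : Type u} {X : Type v} [Group S] [Group X] [Finite S] [Finite X]
    (hG : commutator G = ⊤) {σS : S →* G} (hS : IsStemExtension σS) (hS4 : Nat.card σS.ker = 4)
    (hSc : IsCyclic σS.ker) {π : X →* G} (hπ : IsStemExtension π) (h3 : Nat.card π.ker = 3)
    (α : G ≃* G) (a b a' b' : X) (ha : π a = α (π a')) (hb : π b = α (π b')) (hne : ⁅a, b⁆ ≠ 1)
    (he : ⁅a', b'⁆ = 1) :
    ∃ (Γ₀ : Type (max u v)) (_ : Group Γ₀) (_ : Finite Γ₀) (σ₀ : Γ₀ →* G) (gS : Γ₀ →* S) (gX : Γ₀ →* X),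
      IsStemExtension σ₀ ∧ Function.Surjective gS ∧ Function.Surjective gX ∧
      (∀ x, σS (gS x) = σ₀ x) ∧ (∀ x, π (gX x) = σ₀ x) ∧
      Nonempty (σ₀.ker ≃* Multiplicative (ZMod 4 × ZMod 3 × ZMod 3)) := by
  classical
  have : Finite G := Finite.of_surjective π hπ.1
  let σ₂ : X →* G := α.toMonoidHom.comp π
  have hσ₂ : IsStemExtension σ₂ := by
    refine ⟨α.surjective.comp hπ.1, ?_, ?_⟩
    · intro x hx
      apply hπ.2.1
      exact MonoidHom.mem_ker.2 (α.injective ((MonoidHom.mem_ker.1 hx).trans (map_one α).symm))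
    · intro x hx
      apply hπ.2.2
      exact MonoidHom.mem_ker.2 (α.injective ((MonoidHom.mem_ker.1 hx).trans (map_one α).symm))
  have hσ₂k : ∀ x, σ₂ x = 1 ↔ π x = 1 := fun x => by
    constructor
    · intro h
      exact α.injective (h.trans (map_one α).symm)
    · intro h
      show α (π x) = 1
      rw [h, map_one]
  obtain ⟨D, _, _, ρ, f₁, f₂, hJ⟩ := exists_join hG hπ hσ₂
  obtain ⟨x₀, hx₁, hx₂⟩ := hJ.wit a b a' b' ha hb
  rw [he] at hx₂
  set z := ⁅a, b⁆ with hz
  have hzk : π z = 1 := by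
    rw [hz, map_commutatorElement, ha, hb, ← map_commutatorElement, ← map_commutatorElement, he, map_one, map_one]
  have hzker : z ∈ π.ker := hzk
  have hρx₀ : ρ x₀ = 1 := by
    rw [← hJ.c2, hx₂, map_one]
  have hp3 : Nat.Prime (Nat.card π.ker) := by rw [h3]; norm_num
  -- the kernel of the first join
  have hKz : π.ker = zpowers z := by
    symm
    apply Subgroup.eq_of_le_of_card_ge
    · rw [zpowers_le]; exact hzker
    · rw [h3, Nat.card_zpowers]
      have h5 : orderOf (⟨z, hzker⟩ : π.ker) = 3 := by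
        have h6 := orderOf_eq_prime_pow (p := 3) (n := 0) (x := (⟨z, hzker⟩ : π.ker)) (by
            simp only [pow_zero, pow_one]
            intro h
            exact hne (congrArg Subtype.val h)) (by
            have : Fact (Nat.Prime 3) := ⟨by norm_num⟩
            simp only [pow_zero, pow_one, zero_add]
            rw [← h3]
            exact pow_card_eq_one')
        simpa using h6
      rw [Subgroup.orderOf_mk] at h5
      rw [h5]
  let c₁ := hJ.c1
  have c₂' : ∀ x, π (f₂ x) = 1 ↔ ρ x = 1 := fun x => by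
    rw [← hJ.c2, hσ₂k]
  have c₂ : ∀ x : ρ.ker, f₂ x.1 ∈ π.ker := fun x => (c₂' x.1).2 x.2
  let j₁ : ρ.ker →* π.ker := kerMap f₁ c₁
  let j₂ : ρ.ker →* π.ker :=
    { toFun := fun x => ⟨f₂ x.1, c₂ x⟩
      map_one' := by
        apply Subtype.ext
        simp
      map_mul' := fun x y => by
        apply Subtype.ext
        simp }
  have hjb : Function.Bijective (j₁.prod j₂) := by
    constructor
    · rw [injective_iff_map_eq_one]
      intro x hx
      have h1 : (j₁ x, j₂ x) = 1 := hx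
      have h2 := congrArg Subtype.val (congrArg Prod.fst h1)
      have h4 := congrArg Subtype.val (congrArg Prod.snd h1)
      apply Subtype.ext
      exact hJ.inj x.1 h2 h4
    · rintro ⟨⟨k₁, hk₁⟩, ⟨k₂, hk₂⟩⟩
      obtain ⟨y, hy⟩ := hJ.s2 k₂
      have hyρ : ρ y = 1 := (c₂' y).1 (by rw [hy]; exact hk₂)
      have hf1 : f₁ y ∈ π.ker := by
        rw [MonoidHom.mem_ker, c₁]; exact hyρ
      have h5 : (f₁ y)⁻¹ * k₁ ∈ zpowers z := by
        rw [← hKz]
        exact mul_mem (inv_mem hf1) hk₁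
      obtain ⟨n, hn⟩ := mem_zpowers_iff.1 h5
      have hmk : y * x₀ ^ n ∈ ρ.ker := by
        rw [MonoidHom.mem_ker, map_mul, map_zpow, hρx₀, hyρ]
        simp
      refine ⟨⟨y * x₀ ^ n, hmk⟩, ?_⟩
      apply Prod.ext
      · apply Subtype.ext
        show f₁ (y * x₀ ^ n) = k₁
        rw [map_mul, map_zpow, hx₁, hn]
        group
      · apply Subtype.ext
        show f₂ (y * x₀ ^ n) = k₂
        rw [map_mul, map_zpow, hx₂, hy]
        simp
  let e₃ : ρ.ker ≃* π.ker × π.ker := MulEquiv.ofBijective (j₁.prod j₂) hjb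
  have hρstem := hJ.stem
  -- the second join
  obtain ⟨Γ₀, _, _, σ₀, gS, h, hJ₂⟩ := exists_join hG hS hρstem
  have cS := hJ₂.c1
  have cρ := hJ₂.c2
  let g₁ : σ₀.ker →* σS.ker := kerMap gS cS
  let g₂ : σ₀.ker →* ρ.ker := kerMap h cρ
  have hcard9 : Nat.card ρ.ker = 9 := by
    rw [Nat.card_congr e₃.toEquiv, Nat.card_prod, h3]
  have hb2 : Function.Bijective (g₁.prod g₂) := by
    apply bijective_prod g₁ g₂ (kerMap_surj cS hJ₂.s1) (kerMap_surj cρ hJ₂.s2)
    · intro x h1 h2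
      apply Subtype.ext
      exact hJ₂.inj x.1 (congrArg Subtype.val h1) (congrArg Subtype.val h2)
    · rw [hS4, hcard9]
      norm_num
  let e₀ : σ₀.ker ≃* σS.ker × ρ.ker := MulEquiv.ofBijective (g₁.prod g₂) hb2
  refine ⟨Γ₀, inferInstance, inferInstance, σ₀, gS, f₁.comp h, hJ₂.stem, hJ₂.s1, hJ.s1.comp hJ₂.s2, cS, ?_, ?_⟩
  · intro x
    show π (f₁ (h x)) = _
    rw [c₁, cρ]
  · -- the isomorphism type
    have hcy3 : IsCyclic π.ker := by
      have : Fact (Nat.Prime (Nat.card π.ker)) := ⟨hp3⟩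
      exact isCyclic_of_prime_card rfl
    have e4 : σS.ker ≃* Multiplicative (ZMod 4) := by
      have := (zmodCyclicMulEquiv hSc).symm
      rwa [hS4] at this
    have e5 : π.ker ≃* Multiplicative (ZMod 3) := by
      have := (zmodCyclicMulEquiv hcy3).symm
      rwa [h3] at this
    have e6 : Multiplicative (ZMod 4 × ZMod 3 × ZMod 3) ≃*
        Multiplicative (ZMod 4) × Multiplicative (ZMod 3) × Multiplicative (ZMod 3) :=
      { toFun := fun x => (Multiplicative.ofAdd (Multiplicative.toAdd x).1,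
          Multiplicative.ofAdd (Multiplicative.toAdd x).2.1, Multiplicative.ofAdd (Multiplicative.toAdd x).2.2)
        invFun := fun x => Multiplicative.ofAdd (Multiplicative.toAdd x.1, Multiplicative.toAdd x.2.1,
          Multiplicative.toAdd x.2.2)
        left_inv := fun x => rfl
        right_inv := fun x => rfl
        map_mul' := fun x y => rfl }
    exact ⟨e₀.trans ((e4.prodCongr (e₃.trans (e5.prodCongr e5))).trans e6.symm)⟩

end Big

section Upper

variable {G : Type} [Group G]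

theorem card_ker_part {D : Type*} [Group D] [Finite D] {S : Type*} [Group S] {ρ : D →* G} {σ : S →* G} {f : D →* S}
    (hc : ∀ x, σ (f x) = ρ x) {p : ℕ} (P : Sylow p D) {m n : ℕ}
    (h1 : Nat.card (f.subgroupMap (P : Subgroup D)).ker ∣ m) (h2 : Nat.card σ.ker ∣ n) [Finite S] :
    Nat.card (ρ.subgroupMap (P : Subgroup D)).ker ∣ m * n := by
  classical
  let A := (ρ.subgroupMap (P : Subgroup D)).ker
  let φ : A →* σ.ker :=
    { toFun := fun a => ⟨f a.1.1, by
        rw [MonoidHom.mem_ker, hc]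
        exact Cfsg.Agent.Lib.Schur.Stem.mem_ker_subgroupMap.1 a.2⟩
      map_one' := by
        apply Subtype.ext
        simp
      map_mul' := fun x y => by
        apply Subtype.ext
        simp }
  have h3 : Nat.card A = Nat.card φ.ker * Nat.card φ.range := by
    have h4 := Subgroup.card_mul_index φ.ker
    rw [Subgroup.index_ker] at h4
    exact h4.symm
  show Nat.card A ∣ m * n
  rw [h3]
  apply Nat.mul_dvd_mul
  · refine dvd_trans ?_ h1
    let ψ : φ.ker →* (f.subgroupMap (P : Subgroup D)).ker :=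
      { toFun := fun a => ⟨a.1.1, by
          apply Cfsg.Agent.Lib.Schur.Stem.mem_ker_subgroupMap.2
          have h5 := MonoidHom.mem_ker.1 a.2
          exact congrArg Subtype.val h5⟩
        map_one' := rfl
        map_mul' := fun x y => rfl }
    have hψ : Function.Injective ψ := by
      intro x y hxy
      apply Subtype.ext
      apply Subtype.ext
      exact congrArg (fun w : (f.subgroupMap (P : Subgroup D)).ker => w.1) hxy
    exact Subgroup.card_dvd_of_injective ψ hψ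
  · exact dvd_trans (Subgroup.card_subgroup_dvd_card _) h2

/-- The upper bound. -/
theorem upper {S X Γ₀ : Type} [Group S] [Group X] [Group Γ₀] [Finite S] [Finite X] [Finite Γ₀]
    (hG : commutator G = ⊤) {σS : S →* G} {π : X →* G} {σ₀ : Γ₀ →* G} {gS : Γ₀ →* S} {gX : Γ₀ →* X}
    (h₀ : IsStemExtension σ₀) (sS : Function.Surjective gS) (sX : Function.Surjective gX)
    (cS : ∀ x, σS (gS x) = σ₀ x) (cX : ∀ x, π (gX x) = σ₀ x)
    (hS4 : Nat.card σS.ker = 4) (h3 : Nat.card π.ker = 3)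
    {A : Type*} [CommGroup A] (eA : σ₀.ker ≃* A) (hA : Nat.card A = 36)
    (hodd : ∀ p : ℕ, p.Prime → p ≠ 2 → p ≠ 3 → ¬ p ^ 2 ∣ Nat.card G)
    {Γ : Type u} [Group Γ] [Finite Γ] (τ : Γ →* G) (hτ : IsStemExtension τ)
    (b2 : ∀ (D : Type u) [Group D] [Finite D] (g : D →* S), IsStemExtension g → ∀ [Fact (Nat.Prime 2)] (P : Sylow 2 D),
      Nat.card (g.subgroupMap (P : Subgroup D)).ker ∣ 1)
    (b3 : ∀ (D : Type u) [Group D] [Finite D] (g : D →* X), IsStemExtension g → ∀ [Fact (Nat.Prime 3)] (P : Sylow 3 D),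
      Nat.card (g.subgroupMap (P : Subgroup D)).ker ∣ 3) :
    ∃ π' : A →* τ.ker, Function.Surjective π' := by
  classical
  obtain ⟨D, _, _, ρ, f, f₀, hJ⟩ := exists_join hG hτ h₀
  have hD : commutator D = ⊤ := hJ.perf
  have hρ := hJ.stem
  have c₀ := hJ.c2
  have hcS : ∀ x, σS ((gS.comp f₀) x) = ρ x := fun x => by
    show σS (gS (f₀ x)) = _
    rw [cS, c₀]
  have hcX : ∀ x, π ((gX.comp f₀) x) = ρ x := fun x => by
    show π (gX (f₀ x)) = _
    rw [cX, c₀]
  have stS := stem_of_factor hcS (sS.comp hJ.s2) hρ hD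
  have stX := stem_of_factor hcX (sX.comp hJ.s2) hρ hD
  have hcard : Nat.card ρ.ker ∣ 36 := by
    apply Cfsg.Agent.Lib.Schur.Stem.card_ker_dvd_of_sylow hρ 36 (by norm_num)
    intro p _ P
    by_cases hp2 : p = 2
    · subst hp2
      have h1 := b2 D (gS.comp f₀) stS P
      have h2 := card_ker_part hcS P h1 (dvd_of_eq hS4)
      exact h2.trans (by norm_num)
    · by_cases hp3 : p = 3
      · subst hp3
        have h1 := b3 D (gX.comp f₀) stX P
        have h2 := card_ker_part hcX P h1 (dvd_of_eq h3)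
        exact h2.trans (by norm_num)
      · have hp : p.Prime := Fact.out
        have h1 := Cfsg.Agent.Lib.Schur.Local.card_ker_sylow_of_not_sq_dvd hρ (hodd p hp hp2 hp3) P
        exact h1.trans (one_dvd _)
  have hsz : Nat.card σ₀.ker = 36 := by rw [Nat.card_congr eA.toEquiv, hA]
  let j : ρ.ker →* σ₀.ker := kerMap f₀ c₀
  have hjs : Function.Surjective j := kerMap_surj c₀ hJ.s2
  have hjb : Function.Bijective j := by
    refine (Nat.bijective_iff_surjective_and_card _).2 ⟨hjs, ?_⟩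
    rw [hsz]
    refine Nat.dvd_antisymm hcard ?_
    rw [← hsz]
    exact Subgroup.card_dvd_of_surjective j hjs
  let e : ρ.ker ≃* σ₀.ker := MulEquiv.ofBijective j hjb
  let g : ρ.ker →* τ.ker := kerMap f hJ.c1
  have hgs : Function.Surjective g := kerMap_surj hJ.c1 hJ.s1
  refine ⟨g.comp (e.symm.toMonoidHom.comp eA.symm.toMonoidHom), ?_⟩
  exact hgs.comp (e.symm.surjective.comp eA.symm.surjective)

end Upper

end Cfsg.Agent.Lib.U43Cov.Join
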