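import Cfsg.Agent.Lib.U43Cov.Bridge
import Cfsg.Agent.Lib.U43Cov.Join
import Cfsg.Agent.Lib.Schur.Transport

/-!
# The Schur multiplier of `PSU₄(3)`
-/

set_option autoImplicit false
set_option maxRecDepth 100000

namespace Cfsg.Agent.Lib.U43Cov.Main

open Cfsg Subgroup
open Cfsg.Agent.Lib.U43Cov.Stem Cfsg.Agent.Lib.U43Cov.Bridge Cfsg.Agent.Lib.U43Cov.Join
open Cfsg.Agent.Lib.Schur.Transport

universe u

/-- The primes other than `2` and `3` divide the order at most once. -/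
theorem hodd (p : ℕ) (hp : p.Prime) (h2 : p ≠ 2) (h3 : p ≠ 3) : ¬ p ^ 2 ∣ Nat.card G₀ := by
  rw [card_G₀]
  intro h
  have hc : Nat.Coprime (p ^ 2) (2 ^ 7 * 3 ^ 6) := by
    apply Nat.Coprime.pow_left
    apply Nat.Coprime.mul_right
    · exact ((Nat.coprime_primes hp Nat.prime_two).2 h2).pow_right _
    · exact ((Nat.coprime_primes hp Nat.prime_three).2 h3).pow_right _
  have h4 : p ^ 2 ∣ (2 ^ 7 * 3 ^ 6) * 35 := by
    have : (2 ^ 7 * 3 ^ 6) * 35 = 3265920 := by norm_num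
    rwa [this]
  have h5 := hc.dvd_of_dvd_mul_left h4
  have h6 := Nat.le_of_dvd (by norm_num) h5
  have h7 : p < 6 := by nlinarith
  interval_cases p <;> first | omega | (exact absurd hp (by norm_num))

section

variable {K : Type} [Field K] [Fintype K] (hK : Fintype.card K = 9)

include hK in
theorem exists_S : ∃ σS : ↥(SU 4 K 3) →* G₀, IsStemExtension σS ∧ Nat.card σS.ker = 4 ∧ IsCyclic σS.ker ∧
    Nonempty (PSU 4 K 3 ≃* G₀) ∧ commutator G₀ = ⊤ := by
  obtain ⟨i, hi⟩ := Cfsg.Agent.Lib.U43.SevenPSU.exists_i hK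
  have h3 := Cfsg.Agent.Lib.U43.SevenPSU.three_zero hK
  obtain ⟨σS, hs, hker⟩ := exists_σS hK hi h3
  have hp := perfect_SU hK
  have hF : Fintype.card K = 3 ^ 2 := by rw [hK]; norm_num
  refine ⟨σS, ⟨hs, ?_, ?_⟩, ?_, ?_, ?_, ?_⟩
  · rw [hker]
  · rw [hp]
    exact le_top
  · rw [hker, Cfsg.Agent.Lib.Classical.HermOrders.card_center_SU hF 4 (by norm_num)]
    norm_num
  · rw [hker, center_eq hK hi h3]
    infer_instance
  · exact ⟨(QuotientGroup.quotientMulEquivOfEq hker.symm).trans (QuotientGroup.quotientKerEquivOfSurjective σS hs)⟩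
  · rw [eq_top_iff]
    intro y _
    obtain ⟨x, rfl⟩ := hs y
    have h4 : x ∈ commutator ↥(SU 4 K 3) := by rw [hp]; trivial
    have h5 : (commutator ↥(SU 4 K 3)).map σS ≤ commutator G₀ := by
      unfold _root_.commutator
      rw [Subgroup.map_commutator]
      exact Subgroup.commutator_mono le_top le_top
    exact h5 ⟨x, h4, rfl⟩

end

/-- The multiplier of `G₀` transported to any isomorphic group. -/
theorem schur_of_equiv {G : Type u} [Group G] (e : G ≃* G₀) :
    HasSchurMultiplier G (Multiplicative (ZMod 4 × ZMod 3 × ZMod 3)) := by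
  classical
  have : Fact (Nat.Prime 3) := ⟨by norm_num⟩
  have : Fact (Nat.Prime 2) := ⟨Nat.prime_two⟩
  let K₀ := GaloisField 3 2
  have : Finite K₀ := Nat.finite_of_card_ne_zero (by
    show Nat.card (GaloisField 3 2) ≠ 0
    rw [GaloisField.card 3 2 (by norm_num)]
    norm_num)
  have : Fintype K₀ := Fintype.ofFinite _
  have hK₀ : Fintype.card K₀ = 9 := by
    rw [← Nat.card_eq_fintype_card]
    show Nat.card (GaloisField 3 2) = 9
    rw [GaloisField.card 3 2 (by norm_num)]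
    norm_num
  obtain ⟨σS, hS, hS4, hSc, -, hG⟩ := exists_S hK₀
  obtain ⟨Γ₀, _, _, σ₀, gS, gX, h₀, sS, sX, cS, cX, ⟨eA⟩⟩ := exists_big hG hS hS4 hSc sig_stem sig_card α wa wb wa' wb'
    wit_a wit_b wit_ne wit_e
  constructor
  · -- existence
    let f : ULift.{u} Γ₀ ≃* Γ₀ := MulEquiv.ulift
    have : Finite (ULift.{u} Γ₀) := Finite.of_equiv Γ₀ f.symm.toEquiv
    refine ⟨ULift.{u} Γ₀, inferInstance, inferInstance, tr f e.symm σ₀, isStem_tr f e.symm h₀, ?_⟩
    refine ⟨MulEquiv.trans ?_ eA⟩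
    exact
      { toFun := fun x => ⟨f x.1, (mem_ker_tr f e.symm σ₀ x.1).1 x.2⟩
        invFun := fun y => ⟨f.symm y.1, (mem_ker_tr f e.symm σ₀ _).2 (by simpa using y.2)⟩
        left_inv := fun x => Subtype.ext (by simp)
        right_inv := fun y => Subtype.ext (by simp)
        map_mul' := fun x y => Subtype.ext (by simp) }
  · -- the upper bound
    intro Γ _ _ τ hτ
    let τ' : Γ →* G₀ := tr (MulEquiv.refl Γ) e τ
    have hτ' : IsStemExtension τ' := isStem_tr _ _ hτ
    have hcard : Nat.card (Multiplicative (ZMod 4 × ZMod 3 × ZMod 3)) = 36 := by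
      rw [Nat.card_congr Multiplicative.toAdd, Nat.card_prod, Nat.card_prod, Nat.card_zmod, Nat.card_zmod]
    obtain ⟨π', hπ'⟩ := upper hG h₀ sS sX cS cX hS4 sig_card eA hcard hodd τ' hτ'
      (fun D _ _ g hg _ P => Cfsg.Agent.Lib.CpClosure.SU43.Main.bound hK₀ g hg P)
      (fun D _ _ g hg _ P => bound3 g hg P)
    have hmem : ∀ x : τ'.ker, x.1 ∈ τ.ker := fun x => (mem_ker_tr (MulEquiv.refl Γ) e τ x.1).1 x.2
    let j : τ'.ker →* τ.ker :=
      { toFun := fun x => ⟨x.1, hmem x⟩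
        map_one' := rfl
        map_mul' := fun _ _ => rfl }
    refine ⟨j.comp π', ?_⟩
    intro y
    obtain ⟨a, ha⟩ := hπ' ⟨y.1, (mem_ker_tr (MulEquiv.refl Γ) e τ y.1).2 y.2⟩
    refine ⟨a, ?_⟩
    apply Subtype.ext
    show ((π' a : τ'.ker) : Γ) = y.1
    rw [ha]

/-- The main theorem. -/
theorem main {F : Type u} [Field F] [Fintype F] (hF : Fintype.card F = 9) :
    HasSchurMultiplier (PSU 4 F 3) (Multiplicative (ZMod 4 × ZMod 3 × ZMod 3)) := by
  classical
  have : Fact (Nat.Prime 3) := ⟨by norm_num⟩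
  let K₀ := GaloisField 3 2
  have : Finite K₀ := Nat.finite_of_card_ne_zero (by
    show Nat.card (GaloisField 3 2) ≠ 0
    rw [GaloisField.card 3 2 (by norm_num)]
    norm_num)
  have : Fintype K₀ := Fintype.ofFinite _
  have hK₀ : Fintype.card K₀ = 9 := by
    rw [← Nat.card_eq_fintype_card]
    show Nat.card (GaloisField 3 2) = 9
    rw [GaloisField.card 3 2 (by norm_num)]
    norm_num
  obtain ⟨σS, hS, hS4, hSc, ⟨e1⟩, hG⟩ := exists_S hK₀
  have hc : Fintype.card F = Fintype.card K₀ := by rw [hF, hK₀]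
  obtain ⟨e2⟩ := nonempty_psu_congr (FiniteField.ringEquivOfCardEq hc) 4 3
  exact schur_of_equiv (e2.trans e1)

end Cfsg.Agent.Lib.U43Cov.Main
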